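import Mathlib

/-! Abstract Shintani descent: basic identities. -/

set_option autoImplicit false

namespace CfsgLib.Shintani

variable {X : Type*} [Group X]

theorem mem_fix (σ : MulAut X) (x : X) :
    x ∈ (MulEquiv.toMonoidHom σ).eqLocus (MonoidHom.id X) ↔ σ x = x := Iff.rfl

theorem pow_comm_apply (σ : MulAut X) (i j : ℕ) (x : X) :
    (σ ^ i) ((σ ^ j) x) = (σ ^ j) ((σ ^ i) x) := by
  rw [← MulAut.mul_apply, ← MulAut.mul_apply, ← pow_add, ← pow_add, add_comm]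

theorem pow_apply_comm (σ : MulAut X) (i : ℕ) (x : X) :
    (σ ^ i) (σ x) = σ ((σ ^ i) x) := by
  have := pow_comm_apply σ i 1 x
  simpa using this

/-- The norm `g σ(g) ⋯ σ^(d-1)(g)` of `g = a σ(a)⁻¹` telescopes. -/
theorem norm_eq (σ : MulAut X) (a : X) (d : ℕ) :
    ((List.range d).map (fun i => (σ ^ i) (a * (σ a)⁻¹))).prod = a * ((σ ^ d) a)⁻¹ := by
  induction d with
  | zero => simp
  | succ d ih =>
    rw [List.range_succ, List.map_append, List.prod_append, ih]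
    simp only [List.map_cons, List.map_nil, List.prod_cons, List.prod_nil, mul_one, map_mul, map_inv]
    rw [pow_succ, MulAut.mul_apply]
    group

/-- If `a σ(a)⁻¹` is fixed by `τ` commuting with `σ`, then `τ(a)⁻¹ a` is fixed by `σ`. -/
theorem fix_of_fix (σ τ : MulAut X) (hc : ∀ x, τ (σ x) = σ (τ x)) (a : X)
    (h : τ (a * (σ a)⁻¹) = a * (σ a)⁻¹) : σ ((τ a)⁻¹ * a) = (τ a)⁻¹ * a := by
  rw [map_mul, map_inv, hc] at h
  rw [map_mul, map_inv]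
  have h2 : (σ (τ a))⁻¹ = (τ a)⁻¹ * (a * (σ a)⁻¹) := by rw [← h]; group
  rw [h2]; group

theorem fix_of_fix' (σ τ : MulAut X) (hc : ∀ x, τ (σ x) = σ (τ x)) (a : X)
    (h : σ ((τ a)⁻¹ * a) = (τ a)⁻¹ * a) : τ (a * (σ a)⁻¹) = a * (σ a)⁻¹ := by
  rw [map_mul, map_inv] at h
  rw [map_mul, map_inv, hc]
  have h2 : (σ (τ a))⁻¹ = (τ a)⁻¹ * a * (σ a)⁻¹ := by rw [← h]; group
  rw [h2]; group

theorem pow_fix (σ : MulAut X) (x : X) (h : σ x = x) (n : ℕ) : (σ ^ n) x = x := by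
  induction n with
  | zero => simp
  | succ n ih => rw [pow_succ, MulAut.mul_apply, h, ih]

/-- Centralizer correspondence. -/
theorem centralizer_iff (σ τ : MulAut X) (hτ : ∀ x, σ x = x → τ x = x) (a k : X) :
    (τ k = k ∧ k * (a * (σ a)⁻¹) * (σ k)⁻¹ = a * (σ a)⁻¹) ↔
      (σ (a⁻¹ * k * a) = a⁻¹ * k * a ∧
        (a⁻¹ * k * a) * ((τ a)⁻¹ * a) = ((τ a)⁻¹ * a) * (a⁻¹ * k * a)) := by
  have key : (k * (a * (σ a)⁻¹) * (σ k)⁻¹ = a * (σ a)⁻¹) ↔ σ (a⁻¹ * k * a) = a⁻¹ * k * a := by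
    simp only [map_mul, map_inv]
    constructor
    · intro h
      have h2 : σ k = (a * (σ a)⁻¹)⁻¹ * (k * (a * (σ a)⁻¹)) := by
        have h3 : k * (a * (σ a)⁻¹) = a * (σ a)⁻¹ * σ k := mul_inv_eq_iff_eq_mul.mp h
        rw [h3]; group
      rw [h2]; group
    · intro h
      have h2 : σ k = σ a * (a⁻¹ * k * a) * (σ a)⁻¹ := by rw [← h]; group
      rw [h2]; group
  rw [key]
  constructor
  · rintro ⟨h1, h2⟩
    refine ⟨h2, ?_⟩
    have h3 := hτ _ h2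
    simp only [map_mul, map_inv, h1] at h3
    calc (a⁻¹ * k * a) * ((τ a)⁻¹ * a) = ((τ a)⁻¹ * k * τ a) * ((τ a)⁻¹ * a) := by rw [h3]
      _ = _ := by group
  · rintro ⟨h1, h2⟩
    refine ⟨?_, h1⟩
    have h3 := hτ _ h1
    simp only [map_mul, map_inv] at h3
    have h4 : τ k = τ a * (a⁻¹ * k * a) * (τ a)⁻¹ := by rw [← h3]; group
    have h5 : (a⁻¹ * k * a) * (τ a)⁻¹ = (τ a)⁻¹ * k := by
      have : (a⁻¹ * k * a) * (τ a)⁻¹ = (a⁻¹ * k * a) * ((τ a)⁻¹ * a) * a⁻¹ := by group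
      rw [this, h2]; group
    rw [h4, mul_assoc, h5]; group

end CfsgLib.Shintani
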